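import Cfsg.Agent.H25.GeoLists.SpFour.Scalar
import Cfsg.Agent.H98.SpSubfieldLine

set_option autoImplicit false

/-!
Overgroups of the subfield subgroup of the symplectic group in characteristic two: an element fixing a rational
line is rational, hence so is every element carrying some rational vector to a vector orthogonal to some rational
vector. The arguments are those of `H98.SpSubfieldLine`, but they need no third index.
-/

namespace Cfsg.Agent.H25.SpFour

open Cfsg.Agent.H98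
open scoped Matrix

variable {m : ℕ} {F : Type*} [Field F]

local notation "V" => (Fin m ⊕ Fin m → F)
local notation "Mat" => Matrix (Fin m ⊕ Fin m) (Fin m ⊕ Fin m) F
local notation "β" => Cfsg.Agent.H2.sympBilin m F

variable {F₀ : Subfield F}

/-- A rational element scaling one basis vector and fixing another. -/
theorem exists_scale [NeZero m] {a b : Fin m} (hab : a ≠ b) {lam : F} (hlam : lam ∈ F₀) (hl0 : lam ≠ 0) :
    ∃ g ∈ subGroupF (Fin m ⊕ Fin m) F₀ ⊓ Cfsg.spGL m F,
      (g : Mat) *ᵥ eV a = eV a ∧ (g : Mat) *ᵥ eV b = lam • eV b := by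
  have hfe : β (fV b : V) (eV b) = 1 := by rw [beta_fV, eV]; simp
  have hef : β (eV b : V) (fV b) = -1 := by rw [beta_eV, fV]; simp
  have h1 : β (eV b : V) (fV b) ≠ 0 := by rw [hef]; simp
  have h3 : β (fV b : V) (lam • eV b) ≠ 0 := by rw [map_smul, hfe, smul_eq_mul, mul_one]; exact hl0
  refine ⟨spTrans (lam • eV b - fV b) (β (fV b : V) (lam • eV b))⁻¹ * spTrans (fV b - eV b) (β (eV b : V) (fV b))⁻¹,
    Subgroup.mul_mem _
      (spTrans_rat (isRat_sub (isRat_smul hlam (isRat_eV _)) (isRat_fV _))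
        (inv_mem (beta_rat (isRat_fV _) (isRat_smul hlam (isRat_eV _)))))
      (spTrans_rat (isRat_sub (isRat_fV _) (isRat_eV _)) (inv_mem (beta_rat (isRat_eV _) (isRat_fV _)))), ?_, ?_⟩
  · have e1 : β (eV a : V) (fV b - eV b) = 0 := by rw [map_sub, beta_eV, beta_eV]; simp [eV, fV, hab]
    have e2 : β (eV a : V) (lam • eV b - fV b) = 0 := by rw [map_sub, map_smul, beta_eV, beta_eV]; simp [eV, fV, hab]
    rw [Units.val_mul, ← Matrix.mulVec_mulVec, spTrans_mulVec (fV b - eV b), e1, mul_zero, zero_smul, add_zero,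
      spTrans_mulVec, e2, mul_zero, zero_smul, add_zero]
  · rw [Units.val_mul, ← Matrix.mulVec_mulVec, spTrans_move h1, spTrans_move h3]

section
variable [Fintype F] [NeZero m] {r : ℕ}
variable (hm : 2 ≤ m) (h2 : (2 : F) = 0) (hr : r.Prime) (hcard : Fintype.card F = Nat.card F₀ ^ r)
include hm h2 hr hcard

/-- A transvection with rational centre in a proper overgroup has its scalar in the subfield. -/
theorem long_scalar {M : Subgroup (GL (Fin m ⊕ Fin m) F)} (hM : IsSpProperOver F₀ M) {v : V} (hv : IsRatVec F₀ v)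
    (hv0 : v ≠ 0) {c : F} (hmem : spTrans v c ∈ M) : c ∈ F₀ := by
  by_contra hc
  have hmove : ∀ w : V, IsRatVec F₀ w → w ≠ 0 → spTrans w c ∈ M := fun w hw hw0 => by
    obtain ⟨g, hg, hgv⟩ := exists_rat_move hv hw hv0 hw0
    rw [← hgv, ← conj_spTrans hg.2]
    exact M.mul_mem (M.mul_mem (hM.le hg) hmem) (M.inv_mem (hM.le hg))
  set a : Fin m := ⟨0, by omega⟩
  set b : Fin m := ⟨1, by omega⟩
  have hab : a ≠ b := by simp [a, b, Fin.ext_iff]
  refine hM.proper (spGL_le_of_new_scalar h2 hr hcard hM.le hM.le_sp hab hc ?_)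
  rw [spX, ← spTrans_inv, ← spTrans_inv]
  exact M.mul_mem (M.mul_mem (hmove _ (isRat_add (isRat_eV a) (isRat_eV b))
    (fun h => by simpa [eV, hab] using congrFun h (.inl a))) (M.inv_mem (hmove _ (isRat_eV a) (eV_ne_zero a))))
    (M.inv_mem (hmove _ (isRat_eV b) (eV_ne_zero b)))

/-- A centre displaced along a rational isotropic direction is rational. -/
theorem unip_scalar {M : Subgroup (GL (Fin m ⊕ Fin m) F)} (hM : IsSpProperOver F₀ M) {a b : Fin m} (hab : a ≠ b)
    {c : F} (hmem : spTrans (eV b + c • eV a) (1 : F) ∈ M) : c ∈ F₀ := by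
  classical
  have hee : ∀ x y : Fin m, β (eV x : V) (eV y) = 0 := fun x y => by rw [beta_eV]; simp [eV]
  have hef : ∀ x y : Fin m, x ≠ y → β (eV x : V) (fV y) = 0 := fun x y h => by rw [beta_eV, fV]; simp [h]
  have hef1 : ∀ x : Fin m, β (eV x : V) (fV x) = 1 := fun x => by
    rw [beta_eV, fV]; simpa using neg_eq_self_of_two h2 (1 : F)
  have hnew : ∀ d : F, spX (eV b) (eV a) d ∈ M → d ∈ F₀ := fun d hd => by_contra fun hc =>
    hM.proper (spGL_le_of_new_scalar h2 hr hcard hM.le hM.le_sp hab.symm hc hd)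
  have hdiff : ∀ x y : F, spX (eV b : V) (eV a) (x - y) = spX (eV b) (eV a) x * (spX (eV b) (eV a) y)⁻¹ := fun x y =>
    eq_mul_inv_iff_mul_eq.mpr (by rw [spX_add (hee b a), sub_add_cancel])
  have hP : spX (eV b) (eV a) c * spTrans (eV a) (c * c) ∈ M := by
    have h := hmem
    rw [spTrans_split, spX_smul_right (hee b a), spTrans_smul, mul_one, mul_one] at h
    exact (Subgroup.mul_mem_cancel_right M (hM.le (spTrans_rat (isRat_eV b) (one_mem F₀)))).mp h
  by_cases hbig : ∃ lam ∈ F₀, lam ≠ 0 ∧ lam ≠ 1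
  · obtain ⟨lam, hlam, hl0, hl1⟩ := hbig
    obtain ⟨g, hg, hga, hgb⟩ := exists_scale hab hlam hl0
    have hgM := hM.le hg
    have h := M.mul_mem (M.mul_mem (M.mul_mem hgM hP) (M.inv_mem hgM)) (M.inv_mem hP)
    rw [show g * (spX (eV b) (eV a) c * spTrans (eV a) (c * c)) * g⁻¹ =
      (g * spX (eV b) (eV a) c * g⁻¹) * (g * spTrans (eV a) (c * c) * g⁻¹) by group,
      conj_spX hg.2, conj_spTrans hg.2, hga, hgb, spX_smul_left (hee b a)] at h
    have h' : spX (eV b) (eV a) (lam * c - c) ∈ M := by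
      rw [hdiff]; convert h using 1; group
    have := mul_mem (inv_mem (sub_mem hlam (one_mem F₀))) (hnew _ h')
    rwa [← sub_one_mul, inv_mul_cancel_left₀ (sub_ne_zero.mpr hl1)] at this
  push Not at hbig
  -- the swap of the two vectors
  have hg₁ := spX_rat (F₀ := F₀) (isRat_eV a : IsRatVec F₀ (eV a : V)) (isRat_fV b) (one_mem F₀)
  have hg₂ := spX_rat (F₀ := F₀) (isRat_eV b : IsRatVec F₀ (eV b : V)) (isRat_fV a) (one_mem F₀)
  set g₁ := spX (eV a : V) (fV b) (1 : F) with hg₁def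
  set g₂ := spX (eV b : V) (fV a) (1 : F) with hg₂def
  have hg₁a : (g₁ : Mat) *ᵥ eV a = eV a := by
    rw [hg₁def, spX_mulVec (hef a b hab), hef a b hab, hee, zero_smul, zero_smul, add_zero, smul_zero, add_zero]
  have hg₁b : (g₁ : Mat) *ᵥ eV b = eV b + eV a := by
    rw [hg₁def, spX_mulVec (hef a b hab), hef1, hee, zero_smul, add_zero, one_smul, one_smul]
  have hg₂a : (g₂ : Mat) *ᵥ eV a = eV a + eV b := by
    rw [hg₂def, spX_mulVec (hef b a hab.symm), hef1, hee, zero_smul, add_zero, one_smul, one_smul]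
  have hg₂b : (g₂ : Mat) *ᵥ eV b = eV b := by
    rw [hg₂def, spX_mulVec (hef b a hab.symm), hef b a hab.symm, hee, zero_smul, zero_smul, add_zero, smul_zero,
      add_zero]
  have hdbl : ∀ v : V, v + v = 0 := fun v => by rw [← two_smul F, h2, zero_smul]
  set g := g₁ * g₂ * g₁ with hgdef
  have hg : g ∈ subGroupF (Fin m ⊕ Fin m) F₀ ⊓ Cfsg.spGL m F :=
    Subgroup.mul_mem _ (Subgroup.mul_mem _ hg₁ hg₂) hg₁
  have hga : (g : Mat) *ᵥ eV a = eV b := by
    simp only [hgdef, Units.val_mul, ← Matrix.mulVec_mulVec, hg₁a, hg₂a, Matrix.mulVec_add, hg₁b]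
    rw [add_left_comm, hdbl, add_zero]
  have hgb : (g : Mat) *ᵥ eV b = eV a := by
    simp only [hgdef, Units.val_mul, ← Matrix.mulVec_mulVec, hg₁b, hg₂a, hg₂b, Matrix.mulVec_add, hg₁a]
    calc eV b + eV a + (eV a + (eV b + eV a)) = (eV b + eV b) + (eV a + eV a) + eV a := by abel
      _ = eV a := by rw [hdbl, hdbl, zero_add, zero_add]
  have hgM := hM.le hg
  have hW : spTrans (eV a) (c * c) * spTrans (eV b) (c * c) ∈ M := by
    have h := M.mul_mem hP (M.mul_mem (M.mul_mem hgM hP) (M.inv_mem hgM))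
    rw [show g * (spX (eV b) (eV a) c * spTrans (eV a) (c * c)) * g⁻¹ =
      (g * spX (eV b) (eV a) c * g⁻¹) * (g * spTrans (eV a) (c * c) * g⁻¹) by group,
      conj_spX hg.2, conj_spTrans hg.2, hga, hgb] at h
    convert h using 1
    refine gl_ext fun v => ?_
    simp only [Units.val_mul, ← Matrix.mulVec_mulVec, spTrans_mulVec, spX_mulVec (hee b a), spX_mulVec (hee a b),
      map_add, map_smul, LinearMap.add_apply, LinearMap.smul_apply, smul_eq_mul, hee, mul_zero, add_zero,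
      smul_zero, zero_smul]
    match_scalars <;> (ring_nf <;> simp [h2, show (3 : F) = 1 by linear_combination h2])
  set d := c * c with hd
  have hP2 : spX (eV b) (eV a) d * spTrans (eV a) d ∈ M := by
    have h := M.mul_mem (M.mul_mem (M.mul_mem (hM.le hg₁) hW) (M.inv_mem (hM.le hg₁))) hW
    rw [show g₁ * (spTrans (eV a) d * spTrans (eV b) d) * g₁⁻¹ =
      (g₁ * spTrans (eV a) d * g₁⁻¹) * (g₁ * spTrans (eV b) d * g₁⁻¹) by group,
      conj_spTrans hg₁.2, conj_spTrans hg₁.2, hg₁a, hg₁b] at h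
    convert h using 1
    refine gl_ext fun v => ?_
    simp only [Units.val_mul, ← Matrix.mulVec_mulVec, spTrans_mulVec, spX_mulVec (hee b a),
      map_add, map_smul, LinearMap.add_apply, LinearMap.smul_apply, smul_eq_mul, hee, mul_zero, add_zero,
      smul_zero, zero_smul]
    match_scalars <;> (ring_nf <;> simp [h2, show (3 : F) = 1 by linear_combination h2])
  have hdc : d - c ∈ F₀ := hnew _ (by
    rw [hdiff]
    convert M.mul_mem hP2 (M.inv_mem hP) using 1
    group)
  rcases eq_or_ne (d - c) 0 with h0 | h0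
  · rcases mul_eq_zero.mp (show c * (c - 1) = 0 by rw [hd] at h0; linear_combination h0) with hc | hc
    · rw [hc]; exact zero_mem _
    · rw [sub_eq_zero.mp hc]; exact one_mem _
  have hd1 : d = c + 1 := by linear_combination hbig _ hdc h0
  have hdd : d * d = d + 1 := by
    rw [hd] at hd1 ⊢
    linear_combination (c * c + c + 1) * hd1 + (c : F) * h2
  -- the hyperbolic line of the first vector
  set e : V := eV a with he
  set f : V := fV a with hf
  have hef' : β e f = 1 := hef1 a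
  have hfe' : β f e = 1 := by rw [beta_swap e f, hef', neg_eq_self_of_two h2]
  have hfb : β (eV b : V) f = 0 := hef b a hab.symm
  have hTf := hM.le (spTrans_rat (isRat_fV a : IsRatVec F₀ f) (one_mem F₀))
  have hS : spTrans (e + f) d * spTrans e d ∈ M := by
    have h := M.mul_mem (M.mul_mem (M.mul_mem hTf hW) (M.inv_mem hTf)) (M.inv_mem hW)
    rw [show spTrans f 1 * (spTrans e d * spTrans (eV b) d) * (spTrans f 1)⁻¹ =
      (spTrans f 1 * spTrans e d * (spTrans f 1)⁻¹) * (spTrans f 1 * spTrans (eV b) d * (spTrans f 1)⁻¹) by group,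
      conj_spTrans (spTrans_mem _ _), conj_spTrans (spTrans_mem _ _), spTrans_mulVec, spTrans_mulVec, hef', hfb,
      mul_zero, zero_smul, add_zero, one_mul, one_smul,
      show ∀ x y z : GL (Fin m ⊕ Fin m) F, x * y * (z * y)⁻¹ = x * z⁻¹ from fun x y z => by group,
      spTrans_inv, neg_eq_self_of_two h2] at h
    exact h
  set S := spTrans (e + f) d * spTrans e d with hSdef
  have hSe : (S : Mat) *ᵥ e = (d + 1) • e + d • f := by
    simp only [hSdef, Units.val_mul, ← Matrix.mulVec_mulVec, spTrans_mulVec, map_add, beta_self, hef', mul_zero,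
      zero_smul, add_zero, zero_add, mul_one, smul_add]
    module
  have hSf : (S : Mat) *ᵥ f = (d + 1) • e := by
    simp only [hSdef, Units.val_mul, ← Matrix.mulVec_mulVec, spTrans_mulVec, map_add, map_smul, LinearMap.add_apply,
      LinearMap.smul_apply, smul_eq_mul, beta_self, hef', hfe', mul_zero, mul_one, add_zero, zero_add]
    match_scalars
    all_goals grobner
  have hkey : spTrans f 1 * (S * (S * S)) = spTrans e d := by
    refine gl_ext fun v => ?_
    obtain ⟨p, s, w, hwe, hwf, rfl⟩ : ∃ (p s : F) (w : V), β w e = 0 ∧ β w f = 0 ∧ v = p • e + s • f + w :=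
      ⟨β v f, β v e, v - β v f • e - β v e • f,
        by simp only [map_sub, map_smul, LinearMap.sub_apply, LinearMap.smul_apply, smul_eq_mul, beta_self, hfe']; ring,
        by simp only [map_sub, map_smul, LinearMap.sub_apply, LinearMap.smul_apply, smul_eq_mul, beta_self, hef']; ring,
        by module⟩
    have hSw : (S : Mat) *ᵥ w = w := by
      simp only [hSdef, Units.val_mul, ← Matrix.mulVec_mulVec, spTrans_mulVec, map_add, hwe, hwf, mul_zero,
        zero_smul, add_zero]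
    simp only [Units.val_mul, ← Matrix.mulVec_mulVec, Matrix.mulVec_add, Matrix.mulVec_smul, hSe, hSf, hSw,
      spTrans_mulVec, beta_self, hef', hfe', hwe, hwf, mul_zero, zero_smul, add_zero, mul_one, one_smul]
    have h3 : d * d * d = 1 := by linear_combination (d + 1) * hdd + d * h2
    match_scalars
    all_goals grobner
  have hTe : spTrans e d ∈ M := hkey ▸ M.mul_mem hTf (M.mul_mem hS (M.mul_mem hS hS))
  have := long_scalar hm h2 hr hcard hM (isRat_eV a : IsRatVec F₀ e) (eV_ne_zero a) hTe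
  rw [hd1] at this
  simpa using sub_mem this (one_mem F₀)

/-- Unipotent elements of a proper overgroup attached to the first basis vector are rational. -/
theorem unip_rat {M : Subgroup (GL (Fin m ⊕ Fin m) F)} (hM : IsSpProperOver F₀ M) (i₀ : Fin m)
    {u : GL (Fin m ⊕ Fin m) F} (hu : u ∈ M) (he : (u : Mat) *ᵥ eV i₀ = eV i₀)
    (hp : ∀ w : V, w (.inr i₀) = 0 → ∃ b : F, (u : Mat) *ᵥ w = w + b • eV i₀) :
    u ∈ subGroupF (Fin m ⊕ Fin m) F₀ ⊓ Cfsg.spGL m F := by
  classical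
  have hiso := mem_spGL.mp (hM.le_sp hu)
  -- the coefficients at the other basis vectors
  have hconjw : ∀ w : V, IsRatVec F₀ w → ∀ b : F, (u : Mat) *ᵥ w = w + b • eV i₀ →
      spTrans (w + b • eV i₀) (1 : F) ∈ M := fun w hw b hub => by
    rw [← hub, ← conj_spTrans (hM.le_sp hu)]
    exact M.mul_mem (M.mul_mem hu (hM.le (spTrans_rat hw (one_mem F₀)))) (M.inv_mem hu)
  have hbe : ∀ i, i ≠ i₀ → ∀ b : F, (u : Mat) *ᵥ eV i = eV i + b • eV i₀ → b ∈ F₀ := fun i hi b hub =>
    unip_scalar hm h2 hr hcard hM hi.symm (hconjw _ (isRat_eV i) b hub)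
  have hbf : ∀ i, i ≠ i₀ → ∀ b : F, (u : Mat) *ᵥ fV i = fV i + b • eV i₀ → b ∈ F₀ := by
    intro i hi b hub
    have hne : β (fV i : V) (eV i) ≠ 0 := by rw [beta_fV, eV]; simp
    set g := spTrans (eV i - fV i) (β (fV i : V) (eV i))⁻¹
    have hg : g ∈ M := hM.le (spTrans_rat (isRat_sub (isRat_eV i) (isRat_fV i))
      (inv_mem (beta_rat (isRat_fV i) (isRat_eV i))))
    have hgf : (g : Mat) *ᵥ fV i = eV i := spTrans_move hne
    have hge : (g : Mat) *ᵥ eV i₀ = eV i₀ := by
      have e1 : β (eV i₀ : V) (eV i - fV i) = 0 := by rw [map_sub, beta_eV, beta_eV]; simp [eV, fV, hi.symm]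
      rw [spTrans_mulVec, e1, mul_zero, zero_smul, add_zero]
    have h := M.mul_mem (M.mul_mem hg (hconjw _ (isRat_fV i) b hub)) (M.inv_mem hg)
    rw [conj_spTrans (hM.le_sp hg), Matrix.mulVec_add, Matrix.mulVec_smul, hgf, hge] at h
    exact unip_scalar hm h2 hr hcard hM hi.symm h
  set z := (u : Mat) *ᵥ fV i₀ - fV i₀ with hz
  have hzu : (u : Mat) *ᵥ fV i₀ = fV i₀ + z := by rw [hz, add_sub_cancel]
  have hze : β z (eV i₀) = 0 := by
    have := hiso (fV i₀) (eV i₀)
    rw [he, hzu, map_add, LinearMap.add_apply] at this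
    simpa using this
  have hzw : ∀ w : V, w (.inl i₀) = 0 → w (.inr i₀) = 0 → ∀ b : F,
      (u : Mat) *ᵥ w = w + b • eV i₀ → β z w = - b := by
    intro w hwl hwr b hub
    have := hiso (fV i₀) w
    rw [hzu, hub] at this
    simp only [map_add, map_smul, LinearMap.add_apply, smul_eq_mul, hze, beta_fV i₀ w, hwl,
      beta_fV i₀ (eV i₀)] at this
    simp only [eV, Pi.single_eq_same, mul_one, mul_zero, add_zero, zero_add] at this
    linear_combination this
  have hzrat : ∀ x, x ≠ Sum.inl i₀ → z x ∈ F₀ := by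
    intro x hx
    rcases x with i | i
    · have hi : i ≠ i₀ := fun h => hx (by rw [h])
      obtain ⟨b, hub⟩ := hp (fV i) (by simp [fV, hi.symm])
      have hbF := hbf i hi b hub
      have := hzw (fV i) (by simp [fV]) (by simp [fV, hi.symm]) b hub
      rw [beta_fV_right, neg_inj] at this
      rw [this]; exact hbF
    · by_cases hi : i = i₀
      · subst hi
        rw [← beta_eV_right i z, hze]; exact zero_mem _
      obtain ⟨b, hub⟩ := hp (eV i) (by simp [eV])
      have hbF := hbe i hi b hub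
      have := hzw (eV i) (by simp [eV, Ne.symm hi]) (by simp [eV]) b hub
      rw [beta_eV_right] at this
      rw [this]; exact neg_mem hbF
  set d := z (Sum.inl i₀)
  set wv := z - d • eV i₀ with hwv
  have hwrat : IsRatVec F₀ wv := fun x => by
    rw [hwv, Pi.sub_apply, Pi.smul_apply, smul_eq_mul]
    by_cases hx : x = Sum.inl i₀
    · subst hx; simp [eV, d]
    · simpa [eV, hx] using hzrat x hx
  have hew : β (eV i₀) wv = 0 := by
    rw [hwv, map_sub, map_smul, beta_self, smul_zero, sub_zero, beta_swap z (eV i₀), hze, neg_zero]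
  have hfw : β (fV i₀) wv = 0 := by
    rw [beta_fV, hwv]; simp [eV, d]
  have hfe : β (fV i₀ : V) (eV i₀) = 1 := by rw [beta_fV, eV]; simp
  have hX := spX_rat (F₀ := F₀) (isRat_eV i₀) hwrat (one_mem _)
  set X := spX (eV i₀) wv (1 : F)
  have hXe : (X : Mat) *ᵥ eV i₀ = eV i₀ := by
    rw [spX_mulVec hew, hew, beta_self, zero_smul, zero_smul, add_zero, smul_zero, add_zero]
  set u' := X⁻¹ * u with hu'
  have hu'M : u' ∈ M := M.mul_mem (M.inv_mem (hM.le hX)) hu
  have hiso' := mem_spGL.mp (hM.le_sp hu'M)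
  have hu'e : (u' : Mat) *ᵥ eV i₀ = eV i₀ := by
    rw [hu', Units.val_mul, ← Matrix.mulVec_mulVec, he]
    conv_lhs => rw [← hXe]
    rw [gl_inv_mulVec]
  have hu'f : (u' : Mat) *ᵥ fV i₀ = fV i₀ + d • eV i₀ := by
    rw [hu', Units.val_mul, ← Matrix.mulVec_mulVec, hzu]
    have e : fV i₀ + z = (X : Mat) *ᵥ (fV i₀ + d • eV i₀) := by
      rw [Matrix.mulVec_add, Matrix.mulVec_smul, hXe, spX_mulVec hew, hfw, hfe, zero_smul, zero_add, one_smul,
        one_smul, hwv]
      module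
    rw [e, gl_inv_mulVec]
  have hu'W : ∀ v : V, (u' : Mat) *ᵥ piW i₀ v = piW i₀ v := by
    intro v
    set w := piW i₀ v
    obtain ⟨b, hub⟩ := hp w (piW_inr i₀ v)
    obtain ⟨b', hb'⟩ : ∃ b' : F, (u' : Mat) *ᵥ w = w + b' • eV i₀ := by
      refine ⟨b - β w wv, ?_⟩
      rw [hu', Units.val_mul, ← Matrix.mulVec_mulVec, hub]
      have e : w + b • eV i₀ = (X : Mat) *ᵥ (w + (b - β w wv) • eV i₀) := by
        rw [Matrix.mulVec_add, Matrix.mulVec_smul, hXe, spX_mulVec hew, beta_eV_right i₀ w, show w (.inr i₀) = 0 from piW_inr i₀ v, zero_smul,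
          add_zero, one_smul]
        module
      rw [e, gl_inv_mulVec]
    have := hiso' (fV i₀) w
    rw [hu'f, hb'] at this
    have he0 : β (eV i₀) w = 0 := by rw [beta_eV, show w (.inr i₀) = 0 from piW_inr i₀ v, neg_zero]
    simp only [map_add, map_smul, LinearMap.add_apply, LinearMap.smul_apply, smul_eq_mul, hfe, he0, beta_self,
      mul_zero, mul_one, add_zero] at this
    rw [hb', show b' = 0 by linear_combination this, zero_smul, add_zero]
  have hu't : u' = spTrans (eV i₀) d := by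
    refine gl_ext fun v => ?_
    conv_lhs => rw [piW_decomp i₀ v]
    rw [Matrix.mulVec_add, Matrix.mulVec_add, Matrix.mulVec_smul, Matrix.mulVec_smul, hu'e, hu'f, hu'W,
      spTrans_mulVec, beta_eV_right]
    conv_rhs => rw [piW_decomp i₀ v]
    simp only [Pi.add_apply, Pi.smul_apply, piW_inr, eV, fV, Pi.single_eq_same, smul_eq_mul,
      Pi.single_eq_of_ne (show (Sum.inr i₀ : Fin m ⊕ Fin m) ≠ Sum.inl i₀ by simp), mul_zero, mul_one, zero_add, add_zero]
    module
  have hd : d ∈ F₀ := long_scalar hm h2 hr hcard hM (isRat_eV i₀) (eV_ne_zero i₀) (hu't ▸ hu'M)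
  have : u = X * spTrans (eV i₀) d := by rw [← hu't, hu', mul_inv_cancel_left]
  rw [this]
  exact Subgroup.mul_mem _ hX (spTrans_rat (isRat_eV i₀) hd)

/-- An element of a proper overgroup fixing the first coordinate line is in the subfield subgroup. -/
theorem line_stab_std {M : Subgroup (GL (Fin m ⊕ Fin m) F)} (hM : IsSpProperOver F₀ M) (i₀ : Fin m)
    {y : GL (Fin m ⊕ Fin m) F} (hy : y ∈ M) {lam : F} (he : (y : Mat) *ᵥ eV i₀ = lam • eV i₀) :
    y ∈ subGroupF (Fin m ⊕ Fin m) F₀ := by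
  classical
  have hiso := mem_spGL.mp (hM.le_sp hy)
  have hlam : lam ≠ 0 := fun h => by
    rw [h, zero_smul, ← Matrix.mulVec_zero (y : Mat)] at he
    exact eV_ne_zero i₀ (gl_mulVec_injective y he)
  have hlam2 : lam * lam ∈ F₀ := by
    have h1 := M.mul_mem (M.mul_mem hy (hM.le (spTrans_rat (isRat_eV i₀) (one_mem F₀)))) (M.inv_mem hy)
    rw [conj_spTrans (hM.le_sp hy), he, spTrans_smul, mul_one] at h1
    exact long_scalar hm h2 hr hcard hM (isRat_eV i₀) (eV_ne_zero i₀) h1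
  have hfe : β (fV i₀ : V) (eV i₀) = 1 := by rw [beta_fV, eV]; simp
  have hperp : ∀ w : V, w (.inr i₀) = 0 → β ((y : Mat) *ᵥ w) (eV i₀) = 0 := fun w hw => by
    have := hiso w (eV i₀)
    rw [he, map_smul, beta_eV_right i₀ w, hw, smul_eq_mul] at this
    exact (mul_eq_zero.mp this).resolve_left hlam
  have hrow : ∀ w : V, IsRatVec F₀ w → w (.inr i₀) = 0 → ∀ x, x ≠ Sum.inl i₀ →
      lam * ((y : Mat) *ᵥ w) x ∈ F₀ := by
    intro w hw hw0 x hx
    have hew : β (eV i₀) w = 0 := by rw [beta_eV, hw0, neg_zero]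
    set U := y * spX (eV i₀) w 1 * y⁻¹ with hUdef
    have hU : U ∈ M := M.mul_mem (M.mul_mem hy (hM.le (spX_rat (isRat_eV i₀) hw (one_mem _)))) (M.inv_mem hy)
    have hor : β (eV i₀) ((y : Mat) *ᵥ w) = 0 := by
      rw [beta_swap ((y : Mat) *ᵥ w) (eV i₀), hperp w hw0, neg_zero]
    have hUv : ∀ v, (U : Mat) *ᵥ v =
        v + lam • (β v ((y : Mat) *ᵥ w) • eV i₀ + β v (eV i₀) • ((y : Mat) *ᵥ w)) := fun v => by
      rw [hUdef, conj_spX (hM.le_sp hy), he, spX_smul_left hor, mul_one, spX_mulVec hor]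
    have hUe : (U : Mat) *ᵥ eV i₀ = eV i₀ := by
      rw [hUv, hor, beta_self, zero_smul, zero_smul, add_zero, smul_zero, add_zero]
    have hUS := unip_rat hm h2 hr hcard hM i₀ hU hUe fun v hv => ⟨lam * β v ((y : Mat) *ᵥ w), by
      rw [hUv, beta_eV_right i₀ v, hv, zero_smul, add_zero, smul_smul]⟩
    have h1 := mulVec_rat (rational_of_fix hUS.1 (isRat_eV i₀) (eV_ne_zero i₀) hUe) (isRat_fV (F₀ := F₀) i₀) x
    rw [hUv, hfe, one_smul] at h1
    have h2 : (fV i₀ : V) x ∈ F₀ := isRat_fV i₀ x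
    have h3 := sub_mem h1 h2
    simpa [eV, hx] using h3
  -- the Levi part
  let hL : V →ₗ[F] V :=
    (LinearMap.proj (Sum.inl i₀)).smulRight (lam • eV i₀) + (LinearMap.proj (Sum.inr i₀)).smulRight (lam⁻¹ • fV i₀) +
      (piW i₀).comp ((Matrix.mulVecLin (y : Mat)).comp (piW i₀))
  have hLapp : ∀ v, hL v = v (.inl i₀) • (lam • eV i₀) + v (.inr i₀) • (lam⁻¹ • fV i₀) +
      piW i₀ ((y : Mat) *ᵥ piW i₀ v) := fun v => rfl
  have hyW : ∀ v, ((y : Mat) *ᵥ piW i₀ v) (.inr i₀) = 0 := fun v => by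
    rw [← beta_eV_right i₀ ((y : Mat) *ᵥ piW i₀ v)]; exact hperp _ (piW_inr i₀ v)
  have hef : ∀ v, β (eV i₀) (piW i₀ v) = 0 := fun v => by rw [beta_eV, piW_inr, neg_zero]
  have hff : ∀ v, β (fV i₀) (piW i₀ v) = 0 := fun v => by rw [beta_fV, piW_inl]
  have hef' : ∀ v, β (piW i₀ v) (eV i₀) = 0 := fun v => by rw [beta_eV_right, piW_inr]
  have hff' : ∀ v, β (piW i₀ v) (fV i₀) = 0 := fun v => by rw [beta_fV_right, piW_inl, neg_zero]
  have hpp : ∀ v v', β (piW i₀ ((y : Mat) *ᵥ piW i₀ v)) (piW i₀ ((y : Mat) *ᵥ piW i₀ v')) =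
      β (piW i₀ v) (piW i₀ v') := fun v v' => by
    rw [piW_apply i₀ ((y : Mat) *ᵥ piW i₀ v), piW_apply i₀ ((y : Mat) *ᵥ piW i₀ v'), hyW, hyW]
    simp only [zero_smul, sub_zero, map_sub, map_smul, LinearMap.sub_apply, LinearMap.smul_apply, beta_self,
      beta_eV_right, beta_eV, hyW, hiso, smul_zero, neg_zero, sub_zero]
  have hLiso : ∀ v v', β (hL v) (hL v') = β v v' := fun v v' => by
    conv_rhs => rw [piW_decomp i₀ v, piW_decomp i₀ v']
    have hef2 : β (eV i₀ : V) (fV i₀) = -1 := by rw [beta_swap (fV i₀) (eV i₀), hfe]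
    simp only [hLapp, map_add, map_smul, LinearMap.add_apply, LinearMap.smul_apply, smul_eq_mul, beta_self, hef,
      hff, hef', hff', hpp, hfe, hef2, mul_zero, add_zero, zero_add]
    field_simp
  have hLinj : Function.Injective hL := by
    rw [injective_iff_map_eq_zero]
    intro v hv
    exact (Cfsg.Agent.H2.sympBilin_nondegenerate m F).1 v fun v' => by rw [← hLiso, hv]; simp
  let hg := glOfEquiv (LinearEquiv.ofInjectiveEndo hL hLinj)
  have hgv : ∀ v, (hg : Mat) *ᵥ v = hL v := fun v => by simp [hg]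
  have hgsp : hg ∈ Cfsg.spGL m F := mem_spGL.mpr fun v v' => by rw [hgv, hgv, hLiso]
  have hgS : hg ∈ subGroupF (Fin m ⊕ Fin m) F₀ := mem_subGroupF.mpr ⟨lam, hlam, fun a b => by
    have h := congrFun (hgv (Pi.single b 1)) a
    rw [Matrix.mulVec_single_one, Matrix.col_apply] at h
    rw [h, hLapp]
    set v := (Pi.single b 1 : V)
    have hv : IsRatVec F₀ v := isRat_single b
    have hwr : IsRatVec F₀ (piW i₀ v) := by
      rw [piW_apply]
      exact isRat_sub (isRat_sub hv (isRat_smul (hv _) (isRat_eV i₀))) (isRat_smul (hv _) (isRat_fV i₀))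
    simp only [Pi.add_apply, Pi.smul_apply, smul_eq_mul, mul_add]
    refine add_mem (add_mem ?_ ?_) ?_
    · rw [show lam * (v (.inl i₀) * (lam * eV i₀ a)) = (lam * lam) * (v (.inl i₀) * eV i₀ a) by ring]
      exact mul_mem hlam2 (mul_mem (hv _) (isRat_eV i₀ a))
    · rw [show lam * (v (.inr i₀) * (lam⁻¹ * fV i₀ a)) = v (.inr i₀) * fV i₀ a by field_simp]
      exact mul_mem (hv _) (isRat_fV i₀ a)
    · by_cases ha : a = Sum.inl i₀
      · rw [ha, piW_inl, mul_zero]; exact zero_mem _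
      · rw [piW_apply i₀ ((y : Mat) *ᵥ piW i₀ v), hyW, zero_smul, sub_zero, Pi.sub_apply, Pi.smul_apply, eV,
          Pi.single_eq_of_ne ha, smul_zero, sub_zero]
        exact hrow _ hwr (piW_inr i₀ v) a ha⟩
  have hgM : hg ∈ M := hM.le ⟨hgS, hgsp⟩
  have hge : (hg : Mat) *ᵥ eV i₀ = lam • eV i₀ := by
    rw [hgv, hLapp, piW_apply i₀ (eV i₀ : V)]
    simp [eV, Matrix.mulVec_sub]
  have hmem := unip_rat hm h2 hr hcard hM i₀ (M.mul_mem (M.inv_mem hgM) hy) ?_ fun w hw => ?_
  · have := Subgroup.mul_mem _ hgS hmem.1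
    rwa [mul_inv_cancel_left] at this
  · rw [Units.val_mul, ← Matrix.mulVec_mulVec, he, ← hge, gl_inv_mulVec]
  · refine ⟨lam⁻¹ * ((y : Mat) *ᵥ piW i₀ w) (.inl i₀), ?_⟩
    rw [Units.val_mul, ← Matrix.mulVec_mulVec]
    have e : (y : Mat) *ᵥ w = (hg : Mat) *ᵥ (w + (lam⁻¹ * ((y : Mat) *ᵥ piW i₀ w) (.inl i₀)) • eV i₀) := by
      rw [Matrix.mulVec_add, Matrix.mulVec_smul, hge, hgv, hLapp, piW_apply i₀ ((y : Mat) *ᵥ piW i₀ w), hyW, hw]
      conv_lhs => rw [piW_decomp i₀ w, hw]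
      rw [Matrix.mulVec_add, Matrix.mulVec_add, Matrix.mulVec_smul, Matrix.mulVec_smul, he, smul_smul (_ * _) lam,
        mul_comm _ lam, ← mul_assoc, mul_inv_cancel₀ hlam, one_mul]
      module
    rw [e, gl_inv_mulVec]

/-- An element fixing a rational line is in the subfield subgroup. -/
theorem sp_line_stab {M : Subgroup (GL (Fin m ⊕ Fin m) F)} (hM : IsSpProperOver F₀ M)
    {y : GL (Fin m ⊕ Fin m) F} (hy : y ∈ M) {u : V} (hu : IsRatVec F₀ u) (hu0 : u ≠ 0) {lam : F}
    (he : (y : Mat) *ᵥ u = lam • u) : y ∈ subGroupF (Fin m ⊕ Fin m) F₀ := by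
  set i₀ : Fin m := ⟨0, by omega⟩
  obtain ⟨g, hg, hgu⟩ := exists_rat_move (isRat_eV i₀) hu (eV_ne_zero i₀) hu0
  have hgM := hM.le hg
  have h1 := line_stab_std hm h2 hr hcard hM i₀ (M.mul_mem (M.mul_mem (M.inv_mem hgM) hy) hgM) (lam := lam) (by
    rw [Units.val_mul, Units.val_mul, ← Matrix.mulVec_mulVec, ← Matrix.mulVec_mulVec, hgu, he, Matrix.mulVec_smul,
      ← hgu, gl_inv_mulVec])
  have := Subgroup.mul_mem _ (Subgroup.mul_mem _ hg.1 h1) (Subgroup.inv_mem _ hg.1)
  have e : g * (g⁻¹ * y * g) * g⁻¹ = y := by group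
  rwa [e] at this

/-- The main criterion: some rational vector sent orthogonal to some rational vector. -/
theorem sp_rat_orth_mem {M : Subgroup (GL (Fin m ⊕ Fin m) F)} (hM : IsSpProperOver F₀ M)
    {y : GL (Fin m ⊕ Fin m) F} (hy : y ∈ M) {u u' : V} (hu : IsRatVec F₀ u) (hu0 : u ≠ 0)
    (hu' : IsRatVec F₀ u') (hu'0 : u' ≠ 0) (horth : β u' ((y : Mat) *ᵥ u) = 0) :
    y ∈ subGroupF (Fin m ⊕ Fin m) F₀ := by
  set v := (y : Mat) *ᵥ u
  have hTM : spTrans v 1 ∈ M := by
    rw [← conj_spTrans (hM.le_sp hy)]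
    exact M.mul_mem (M.mul_mem hy (hM.le (spTrans_rat hu (one_mem _)))) (M.inv_mem hy)
  have hfix : (spTrans v 1 : Mat) *ᵥ u' = u' := by
    rw [spTrans_mulVec, horth, mul_zero, zero_smul, add_zero]
  have hTS := sp_line_stab hm h2 hr hcard hM hTM hu' hu'0 (lam := 1) (by rw [one_smul]; exact hfix)
  have hTrat := rational_of_fix hTS hu' hu'0 hfix
  have hv0 : v ≠ 0 := fun h => by
    refine hu0 (gl_mulVec_injective y ?_)
    change (y : Mat) *ᵥ u = (y : Mat) *ᵥ 0
    rw [Matrix.mulVec_zero]; exact h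
  obtain ⟨z, hz, hzv, -⟩ := exists_rat_pair (F₀ := F₀) hv0 hv0
  set u₂ := β z v • v with hu₂
  have hu₂r : IsRatVec F₀ u₂ := by
    have h1 := isRat_sub (mulVec_rat hTrat hz) hz
    rwa [spTrans_mulVec, add_sub_cancel_left, one_mul] at h1
  have hu₂0 : u₂ ≠ 0 := smul_ne_zero hzv hv0
  obtain ⟨g, hg, hgu⟩ := exists_rat_move hu₂r hu hu₂0 hu0
  have h2 := sp_line_stab hm h2 hr hcard hM (M.mul_mem (hM.le hg) hy) hu hu0 (lam := (β z v)⁻¹) (by
    rw [Units.val_mul, ← Matrix.mulVec_mulVec]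
    conv_rhs => rw [← hgu, hu₂, Matrix.mulVec_smul, smul_smul, inv_mul_cancel₀ hzv, one_smul])
  have := Subgroup.mul_mem _ (Subgroup.inv_mem _ hg.1) h2
  rwa [inv_mul_cancel_left] at this

end

end Cfsg.Agent.H25.SpFour
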