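import Cfsg.Agent.H98.MaximalSpOrth

set_option autoImplicit false

/-!
In characteristic two the orthogonal groups are maximal in the symplectic group of any rank at least two.
The argument is that of `H98.MaximalSpOrth`.
-/

namespace Cfsg.Agent.H25.SpFour

open Cfsg.Agent.H98
open scoped Matrix

variable {m : ℕ} {F : Type*} [Field F] [Fintype F]

local notation "V" => (Fin m ⊕ Fin m → F)
local notation "Mat" => Matrix (Fin m ⊕ Fin m) (Fin m ⊕ Fin m) F
local notation "β" => Cfsg.Agent.H2.sympBilin m F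

/-- For `q` even the isometry groups of quadratic forms polarising to the symplectic form are maximal. -/
theorem sp_orth_maximal₂ (hm : 2 ≤ m) (h2 : (2 : F) = 0) (Q : (Fin m ⊕ Fin m → F) → F)
    (hQ : Cfsg.Geo.IsNondegenerateQuadraticForm Q) (hpol : ∀ u v, QuadraticMap.polar Q u v = β u v) :
    Cfsg.Geo.IsMaximalIn (Cfsg.spGL m F) (Cfsg.Geo.quadSimilarityGroup Q ⊓ Cfsg.spGL m F) := by
  classical
  haveI : Fact (Nat.Prime 2) := ⟨Nat.prime_two⟩
  haveI : CharP F 2 := (CharP.charP_iff_prime_eq_zero Nat.prime_two).mpr (by exact_mod_cast h2)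
  have hsqrt : ∀ c : F, ∃ s : F, s * s = c := fun c => by
    obtain ⟨s, hs⟩ := FiniteField.isSquare_of_char_two (ringChar.eq F 2) c
    exact ⟨s, hs.symm⟩
  have htwo : ∀ a : F, a + a = 0 := fun a => by rw [← two_mul, h2, zero_mul]
  have hadd : ∀ x y : V, Q (x + y) = Q x + Q y + β x y := fun x y => by
    rw [← hpol, QuadraticMap.polar]; ring
  have hsm : ∀ (c : F) (x : V), Q (c • x) = c ^ 2 * Q x := hQ.smul
  have htt : ∀ (x v : V), Q ((spTrans v 1 : Mat) *ᵥ x) = Q x + β x v ^ 2 * (Q v + 1) := by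
    intro x v
    rw [spTrans_mulVec, hadd, hsm, map_smul, smul_eq_mul, one_mul]
    ring
  have hone : ∀ g ∈ Cfsg.Geo.quadSimilarityGroup Q ⊓ Cfsg.spGL m F, ∀ x : V, Q ((g : Mat) *ᵥ x) = Q x := by
    rintro g ⟨⟨c, hc⟩, hg⟩ x
    obtain ⟨u, v, huv⟩ : ∃ u v : V, β u v ≠ 0 := by
      by_contra h; push Not at h
      have hz := (Cfsg.Agent.H2.sympBilin_nondegenerate m F).1 (Pi.single (Sum.inl ⟨0, by omega⟩) 1) (h _)
      simpa using congrFun hz (Sum.inl ⟨0, by omega⟩)
    have h1 := mem_spGL.mp hg u v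
    rw [← hpol, ← hpol, QuadraticMap.polar, ← Matrix.mulVec_add, hc, hc, hc, ← mul_sub, ← mul_sub] at h1
    change (c : F) * QuadraticMap.polar Q u v = QuadraticMap.polar Q u v at h1
    rw [hpol] at h1
    rw [hc, mul_eq_right₀ huv |>.mp h1, one_mul]
  -- orthogonal spaces of small sets hold every value
  have hvalue : ∀ (S : Finset V) (c : F), S.card < m → ∃ y : V, (∀ x ∈ S, β x y = 0) ∧ Q y = c := by
    intro S c hS
    set W := spPerp (Submodule.span F (S : Set V))
    have hW : m < Module.finrank F W := by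
      have h1 := LinearMap.BilinForm.finrank_orthogonal (Cfsg.Agent.H2.sympBilin_nondegenerate m F)
        (Submodule.span F (S : Set V))
      have h2' := finrank_span_finset_le_card (R := F) S
      rw [← spPerp_eq_orthogonal, Module.finrank_pi, Fintype.card_sum, Fintype.card_fin] at h1
      change Module.finrank F (Submodule.span F (S : Set V)) ≤ S.card at h2'
      change Module.finrank F W = _ at h1
      omega
    obtain ⟨y, hy, hy0⟩ : ∃ y ∈ W, Q y ≠ 0 := by
      by_contra h; push Not at h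
      have := Cfsg.Agent.H4.two_mul_finrank_le (qOfFun_nondeg hQ) (W := W) h
      rw [Module.finrank_pi, Fintype.card_sum, Fintype.card_fin] at this
      omega
    obtain ⟨s, hs⟩ := hsqrt (c / Q y)
    refine ⟨s • y, fun x hx => ?_, ?_⟩
    · rw [map_smul, smul_eq_mul, hy x (Submodule.subset_span hx), mul_zero]
    · rw [hsm, pow_two, hs, div_mul_cancel₀ _ hy0]
  have hvalue₂ : ∀ (a b : V) (c : F), β a b ≠ 0 → ∃ y : V, β a y = 0 ∧ β b y = 0 ∧ Q y = c := by
    intro a b c hab
    have hba : β b a ≠ 0 := by rw [beta_swap a b]; exact neg_ne_zero.mpr hab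
    let π : V → V := fun x => x - (β b x / β b a) • a - (β a x / β a b) • b
    have hπa : ∀ x, β a (π x) = 0 := fun x => by
      simp only [π, map_sub, map_smul, smul_eq_mul, beta_self, mul_zero, sub_zero, div_mul_cancel₀ _ hab, sub_self]
    have hπb : ∀ x, β b (π x) = 0 := fun x => by
      simp only [π, map_sub, map_smul, smul_eq_mul, beta_self, mul_zero, sub_zero, div_mul_cancel₀ _ hba, sub_self]
    obtain ⟨x, hx⟩ : ∃ x, π x ≠ 0 := by
      by_contra hall; push Not at hall
      have h1 : (⊤ : Submodule F V) ≤ Submodule.span F ({a, b} : Set V) := fun x _ =>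
        Submodule.mem_span_pair.mpr ⟨β b x / β b a, β a x / β a b, by
          rw [← sub_eq_zero, ← neg_eq_zero, ← hall x]; simp only [π]; abel⟩
      have h1' := Submodule.finrank_mono h1
      have h2' := finrank_span_finset_le_card (R := F) ({a, b} : Finset V)
      rw [finrank_top, Module.finrank_pi, Fintype.card_sum, Fintype.card_fin] at h1'
      rw [Finset.coe_insert, Finset.coe_singleton] at h2'
      have h3' := h2'.trans (Finset.card_le_two (a := a) (b := b))
      change Module.finrank F (Submodule.span F ({a, b} : Set V)) ≤ 2 at h3'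
      omega
    obtain ⟨z, hz⟩ : ∃ z : V, β (π x) z ≠ 0 := by
      by_contra h; push Not at h
      exact hx ((Cfsg.Agent.H2.sympBilin_nondegenerate m F).1 (π x) h)
    have hzz : β (π x) (π z) ≠ 0 := by
      have e1 : β (π x) a = 0 := by rw [beta_swap a (π x), hπa, neg_zero]
      have e2 : β (π x) b = 0 := by rw [beta_swap b (π x), hπb, neg_zero]
      have e3 : β (π x) (π z) = β (π x) z := by
        simp only [π] at e1 e2 ⊢
        simp only [map_sub, map_smul, LinearMap.sub_apply, LinearMap.smul_apply, smul_eq_mul] at e1 e2 ⊢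
        linear_combination -(β b z / β b a) * e1 - (β a z / β a b) * e2
      rw [e3]; exact hz
    obtain ⟨y, hya, hyb, hy0⟩ : ∃ y, β a y = 0 ∧ β b y = 0 ∧ Q y ≠ 0 := by
      by_cases h1 : Q (π x) = 0
      swap
      · exact ⟨π x, hπa x, hπb x, h1⟩
      by_cases h3 : Q (π z) = 0
      swap
      · exact ⟨π z, hπa z, hπb z, h3⟩
      refine ⟨π x + π z, by rw [map_add, hπa, hπa, add_zero], by rw [map_add, hπb, hπb, add_zero], ?_⟩
      rw [hadd, h1, h3, add_zero, zero_add]; exact hzz
    obtain ⟨s, hs⟩ := hsqrt (c / Q y)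
    refine ⟨s • y, by rw [map_smul, hya, smul_zero], by rw [map_smul, hyb, smul_zero], ?_⟩
    rw [hsm, pow_two, hs, div_mul_cancel₀ _ hy0]
  have hpair : ∀ (u : V), u ≠ 0 → ∀ s : F, ∃ w : V, Q w = 1 ∧ β w u = s := by
    intro u hu s
    obtain ⟨z, hz⟩ : ∃ z : V, β z u ≠ 0 := by
      by_contra h; push Not at h
      exact hu ((Cfsg.Agent.H2.sympBilin_nondegenerate m F).2 u h)
    set z' := (s / β z u) • z with hz'
    obtain ⟨y, hy, hQy⟩ : ∃ y : V, (∀ x ∈ ({u, z'} : Finset V), β x y = 0) ∧ Q y = 1 - Q z' := by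
      rcases eq_or_ne s 0 with rfl | hs
      · obtain ⟨y, hy, hQy⟩ := hvalue {u} (1 - Q z') (by simp; omega)
        refine ⟨y, fun x hx => ?_, hQy⟩
        rcases Finset.mem_insert.mp hx with rfl | hx
        · exact hy _ (by simp)
        · rw [Finset.mem_singleton.mp hx, hz', zero_div, zero_smul]; simp
      · have hne : β z' u ≠ 0 := by
          rw [hz', map_smul, LinearMap.smul_apply, smul_eq_mul, div_mul_cancel₀ _ hz]; exact hs
        obtain ⟨y, hy1, hy2, hQy⟩ := hvalue₂ z' u (1 - Q z') hne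
        refine ⟨y, fun x hx => ?_, hQy⟩
        rcases Finset.mem_insert.mp hx with rfl | hx
        · exact hy2
        · rw [Finset.mem_singleton.mp hx]; exact hy1
    refine ⟨z' + y, ?_, ?_⟩
    · rw [hadd, hQy, hy z' (by simp)]; ring
    · rw [map_add, LinearMap.add_apply, beta_swap u y, hy u (by simp), neg_zero, add_zero, hz', map_smul,
        LinearMap.smul_apply, smul_eq_mul, div_mul_cancel₀ _ hz]
  refine isMaximalIn_of inf_le_right ?_ ?_
  · obtain ⟨u, -, hu⟩ := hvalue ∅ 1 (by simp; omega)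
    obtain ⟨z, hz, hzu⟩ := hpair u (by rintro rfl; simp [show Q 0 = 0 by simpa using hsm 0 0] at hu) 1
    obtain ⟨y, hy, hQy⟩ : ∃ y : V, (∀ x ∈ ({u, z} : Finset V), β x y = 0) ∧ Q y = 1 := by
      obtain ⟨y, hy1, hy2, hQy⟩ := hvalue₂ z u 1 (by rw [hzu]; exact one_ne_zero)
      refine ⟨y, fun x hx => ?_, hQy⟩
      rcases Finset.mem_insert.mp hx with rfl | hx
      · exact hy2
      · rw [Finset.mem_singleton.mp hx]; exact hy1
    refine ⟨spTrans (u + y) 1, spTrans_mem _ _, fun h => ?_⟩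
    have h1 := hone _ h z
    rw [htt, hadd u y, hu, hQy, hy u (by simp), add_zero, htwo, zero_add, mul_one, map_add, hzu,
      hy z (by simp), add_zero, one_pow] at h1
    exact one_ne_zero (add_eq_left.mp h1)
  intro M hHM hMK g hg hgH
  let C : Set V := {v | spTrans v 1 ∈ M}
  have hCH : ∀ v : V, Q v = 1 → v ∈ C := fun v hv => hHM ⟨⟨1, fun x => by
    rw [htt, hv, htwo, mul_zero, add_zero, Units.val_one, one_mul]⟩, spTrans_mem v 1⟩
  have hCconj : ∀ h ∈ M, ∀ v ∈ C, (h : Mat) *ᵥ v ∈ C := by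
    intro h hh v hv
    change spTrans _ 1 ∈ M
    rw [← conj_spTrans (hMK hh)]
    exact M.mul_mem (M.mul_mem hh hv) (M.inv_mem hh)
  obtain ⟨w, hw, hgw⟩ : ∃ w : V, Q w = 1 ∧ Q ((g : Mat) *ᵥ w) ≠ 1 := by
    by_contra hcon; push Not at hcon
    refine hgH ⟨⟨1, fun x => ?_⟩, hMK hg⟩
    obtain ⟨y, hy, hQy⟩ := hvalue {x} 1 (by simp; omega)
    obtain ⟨s, hs⟩ := hsqrt (1 - Q x)
    have h1 : Q (x + s • y) = 1 := by
      rw [hadd, hsm, hQy, map_smul, smul_eq_mul, hy x (by simp), mul_zero, pow_two, hs]; ring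
    have h2' := hcon _ h1
    rw [Matrix.mulVec_add, Matrix.mulVec_smul, hadd, hsm, hcon y hQy, map_smul, smul_eq_mul,
      mem_spGL.mp (hMK hg), hy x (by simp), mul_zero, pow_two, hs] at h2'
    rw [Units.val_one, one_mul]
    linear_combination h2'
  set u := (g : Mat) *ᵥ w
  have hu : u ∈ C := hCconj g hg w (hCH w hw)
  have hu0 : u ≠ 0 := fun h => by
    have : w = 0 := gl_mulVec_injective g (show (g : Mat) *ᵥ w = (g : Mat) *ᵥ 0 by rw [Matrix.mulVec_zero]; exact h)
    subst this
    simp [show Q 0 = 0 by simpa using hsm 0 0] at hw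
  refine spGL_le_of_spTrans M fun v c => ?_
  obtain ⟨r, hr⟩ := hsqrt c
  suffices h : r • v ∈ C by
    have h' : spTrans (r • v) 1 ∈ M := h
    rwa [spTrans_smul, mul_one, hr] at h'
  by_cases hv : r • v = 0
  · change spTrans (r • v) 1 ∈ M
    rw [hv, spTrans_zero_vec]; exact M.one_mem
  -- a vector with the same value
  have hne : Q u + 1 ≠ 0 := fun h => hgw (by linear_combination h - htwo (1 : F))
  obtain ⟨s, hs⟩ := hsqrt ((Q (r • v) + 1) / (Q u + 1))
  obtain ⟨w', hw', hw'u⟩ := hpair u hu0 s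
  set x := (spTrans u 1 : Mat) *ᵥ w'
  have hxC : x ∈ C := hCconj _ hu w' (hCH w' hw')
  have hxQ : Q x = Q (r • v) := by
    rw [htt, hw', hw'u, pow_two, hs, div_mul_cancel₀ _ hne]
    linear_combination htwo (1 : F)
  have hx0 : x ≠ 0 := fun h => by
    have : w' = 0 := gl_mulVec_injective _ (show (spTrans u 1 : Mat) *ᵥ w' = (spTrans u 1 : Mat) *ᵥ 0 by
      rw [Matrix.mulVec_zero]; exact h)
    subst this
    simp [show Q 0 = 0 by simpa using hsm 0 0] at hw'
  obtain ⟨e, he, hex⟩ := Cfsg.Agent.H4.exists_isom_family (qOfFun_nondeg hQ)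
    (fun _ : Unit => x) (fun _ : Unit => r • v)
    (LinearIndependent.of_subsingleton () hx0) (LinearIndependent.of_subsingleton () hv)
    (fun _ => hxQ) (fun _ _ => by simp only [coe_qOfFun, hpol, beta_self])
  have := hCconj _ (hHM (spOrth_glOfEquiv_mem hQ hpol he)) x hxC
  rwa [glOfEquiv_mulVec, hex ()] at this

end Cfsg.Agent.H25.SpFour
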