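import Cfsg.Agent.H98.SpSubfieldBase
import Mathlib.FieldTheory.IntermediateField.Adjoin.Basic

set_option autoImplicit false

/-!
Overgroups of the subfield subgroup of the four dimensional symplectic group in characteristic two: a root
element with a scalar outside the subfield generates everything.
-/

namespace Cfsg.Agent.H25.SpFour

open Cfsg.Agent.H98
open scoped Matrix

variable {m : ℕ} {F : Type*} [Field F]

local notation "V" => (Fin m ⊕ Fin m → F)
local notation "Mat" => Matrix (Fin m ⊕ Fin m) (Fin m ⊕ Fin m) F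
local notation "β" => Cfsg.Agent.H2.sympBilin m F

theorem neg_eq_self_of_two (h2 : (2 : F) = 0) (x : F) : -x = x := by linear_combination -x * h2

/-- The transvection at a sum of two vectors. -/
theorem spTrans_split (x z : V) (c : F) :
    spTrans (x + z) c = spX x z c * spTrans z c * spTrans x c := by
  rw [spX, ← spTrans_inv, ← spTrans_inv]; group

variable {F₀ : Subfield F}
variable [Fintype F] [NeZero m] {r : ℕ}

/-- A short root element with a scalar outside the subfield generates everything. -/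
theorem spGL_le_of_new_scalar (h2 : (2 : F) = 0) (hr : r.Prime)
    (hcard : Fintype.card F = Nat.card F₀ ^ r) {M : Subgroup (GL (Fin m ⊕ Fin m) F)}
    (hle : subGroupF (Fin m ⊕ Fin m) F₀ ⊓ Cfsg.spGL m F ≤ M) (hsp : M ≤ Cfsg.spGL m F) {l k : Fin m} (hlk : l ≠ k)
    {c : F} (hc : c ∉ F₀) (hmem : spX (eV l) (eV k) c ∈ M) : Cfsg.spGL m F ≤ M := by
  classical
  have hee : ∀ a b : Fin m, β (eV a : V) (eV b) = 0 := fun a b => by rw [beta_eV]; simp [eV]
  have hef : ∀ a b : Fin m, a ≠ b → β (eV a : V) (fV b) = 0 := fun a b h => by rw [beta_eV, fV]; simp [h]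
  have hfe : ∀ a b : Fin m, a ≠ b → β (fV a : V) (eV b) = 0 := fun a b h => by rw [beta_fV, eV]; simp [h]
  have hfe1 : ∀ a : Fin m, β (fV a : V) (eV a) = 1 := fun a => by rw [beta_fV, eV]; simp
  have hef1 : ∀ a : Fin m, β (eV a : V) (fV a) = -1 := fun a => by rw [beta_eV, fV]; simp
  have hconj : ∀ (g : GL (Fin m ⊕ Fin m) F), g ∈ M → ∀ (x z : V) (d : F), spX x z d ∈ M →
      spX ((g : Mat) *ᵥ x) ((g : Mat) *ᵥ z) d ∈ M := fun g hg x z d h => by
    rw [← conj_spX (hsp hg)]; exact M.mul_mem (M.mul_mem hg h) (M.inv_mem hg)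
  have hconjT : ∀ (g : GL (Fin m ⊕ Fin m) F), g ∈ M → ∀ (x : V) (d : F), spTrans x d ∈ M →
      spTrans ((g : Mat) *ᵥ x) d ∈ M := fun g hg x d h => by
    rw [← conj_spTrans (hsp hg)]; exact M.mul_mem (M.mul_mem hg h) (M.inv_mem hg)
  have htrans : ∀ v w : V, IsRatVec F₀ v → v ≠ 0 → IsRatVec F₀ w → w ≠ 0 → ∀ d : F, spTrans v d ∈ M →
      spTrans w d ∈ M := fun v w hv hv0 hw hw0 d h => by
    obtain ⟨g, hg, hgv⟩ := exists_rat_move hv hw hv0 hw0
    rw [← hgv]; exact hconjT g (hle hg) v d h
  have hsym : ∀ (a b : Fin m) (d : F), spX (eV a) (eV b) d ∈ M → spX (eV b) (eV a) d ∈ M := fun a b d h => by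
    rwa [spX_comm_sym (hee b a)]
  have hmixed : ∀ (a b : Fin m) (d : F), a ≠ b → spX (eV a) (eV b) d ∈ M → spX (fV a) (eV b) d ∈ M := by
    intro a b d hab h
    have hne : β (eV a : V) (fV a) ≠ 0 := by rw [hef1]; simp
    have := hconj _ (hle (spTrans_rat (isRat_sub (isRat_fV a) (isRat_eV a))
      (inv_mem (beta_rat (F₀ := F₀) (isRat_eV a) (isRat_fV a))))) _ _ d h
    rwa [spTrans_move hne, spTrans_mulVec _ (eV b), map_sub, hef b a hab.symm, hee, sub_zero, mul_zero, zero_smul,
      add_zero] at this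
  -- rational multiples
  have hscale : ∀ lam ∈ F₀, ∀ d : F, spX (eV l) (eV k) d ∈ M → spX (eV l) (eV k) (lam * d) ∈ M := by
    intro lam hlam d h
    rcases eq_or_ne lam 0 with rfl | hl0
    · rw [zero_mul]; exact hle (spX_rat (isRat_eV _) (isRat_eV _) (zero_mem _))
    have h1 : β (eV l : V) (fV l) ≠ 0 := by rw [hef1]; simp
    have h3 : β (fV l : V) (lam • eV l) ≠ 0 := by rw [map_smul, hfe1, smul_eq_mul, mul_one]; exact hl0
    set g := spTrans (lam • eV l - fV l) (β (fV l : V) (lam • eV l))⁻¹ *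
      spTrans (fV l - eV l) (β (eV l : V) (fV l))⁻¹ with hg
    have hgM : g ∈ M := hle (Subgroup.mul_mem _
      (spTrans_rat (isRat_sub (isRat_smul hlam (isRat_eV _)) (isRat_fV _))
        (inv_mem (beta_rat (isRat_fV _) (isRat_smul hlam (isRat_eV _)))))
      (spTrans_rat (isRat_sub (isRat_fV _) (isRat_eV _)) (inv_mem (beta_rat (isRat_eV _) (isRat_fV _)))))
    have hgl : (g : Mat) *ᵥ eV l = lam • eV l := by
      rw [hg, Units.val_mul, ← Matrix.mulVec_mulVec, spTrans_move h1, spTrans_move h3]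
    have hgk : (g : Mat) *ᵥ eV k = eV k := by
      rw [hg, Units.val_mul, ← Matrix.mulVec_mulVec, spTrans_mulVec (fV l - eV l)]
      have e1 : β (eV k : V) (fV l - eV l) = 0 := by rw [map_sub, hef _ _ hlk.symm, hee, sub_zero]
      have e2 : β (eV k : V) (lam • eV l - fV l) = 0 := by
        rw [map_sub, map_smul, hef _ _ hlk.symm, hee, smul_zero, sub_zero]
      rw [e1, mul_zero, zero_smul, add_zero, spTrans_mulVec, e2, mul_zero, zero_smul, add_zero]
    have := hconj g hgM _ _ d h
    rwa [hgl, hgk, spX_smul_left (hee l k)] at this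
  -- short times long
  have hmul : ∀ d u : F, spX (eV l) (eV k) d ∈ M → spTrans (eV k) u ∈ M →
      (spX (eV l) (eV k) (d * u) ∈ M ↔ spTrans (eV l) (d * d * u) ∈ M) := by
    intro d u hd hu
    have hg : spX (eV l) (fV k) d ∈ M := by
      rw [spX_comm_sym (hef l k hlk)]; exact hmixed k l d hlk.symm (hsym l k d hd)
    have h1 := hconjT _ hg _ u hu
    rw [spX_mulVec (hef l k hlk), hef1, hee, zero_smul, add_zero, smul_smul, mul_neg, mul_one,
      neg_eq_self_of_two h2, spTrans_split, spX_smul_right (hee k l), spTrans_smul, spX_comm_sym (hee k l)] at h1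
    have h3 := (Subgroup.mul_mem_cancel_right M hu).mp h1
    exact ⟨fun h => (Subgroup.mul_mem_cancel_left M h).mp h3, fun h => (Subgroup.mul_mem_cancel_right M h).mp h3⟩
  -- long gives short
  have hAB : ∀ d : F, spTrans (eV l) d ∈ M → spX (eV l) (eV k) d ∈ M := by
    intro d hd
    have hne : (eV l : V) + eV k ≠ 0 := fun h => by simpa [eV, hlk] using congrFun h (.inl l)
    have hs := htrans _ _ (isRat_eV l) (eV_ne_zero l) (isRat_add (isRat_eV l) (isRat_eV k)) hne d hd
    have hk := htrans _ _ (isRat_eV l) (eV_ne_zero l) (isRat_eV k) (eV_ne_zero k) d hd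
    rw [spTrans_split] at hs
    exact (Subgroup.mul_mem_cancel_right M hk).mp ((Subgroup.mul_mem_cancel_right M hd).mp hs)
  have hone : spTrans (eV k : V) (1 : F) ∈ M := hle (spTrans_rat (isRat_eV k) (one_mem _))
  have hBA2 : ∀ d : F, spX (eV l) (eV k) d ∈ M → spTrans (eV l) (d * d) ∈ M := fun d hd => by
    have := (hmul d 1 hd hone).mp (by rwa [mul_one])
    rwa [mul_one] at this
  have hBA : ∀ d : F, spX (eV l) (eV k) d ∈ M → spTrans (eV l) d ∈ M := by
    intro d hd
    let B := {x : F // spX (eV l) (eV k) x ∈ M}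
    let sq : B → B := fun x => ⟨(x : F) * x, hAB _ (hBA2 _ x.2)⟩
    have hinj : Function.Injective sq := fun x y h => Subtype.ext (by
      have h' : (x : F) * x = y * y := congrArg Subtype.val h
      have h3 : ((x : F) - y) * (x - y) = 0 := by linear_combination h' + ((y : F) * y - x * y) * h2
      exact sub_eq_zero.mp (mul_self_eq_zero.mp h3))
    obtain ⟨x, hx⟩ := Finite.injective_iff_surjective.mp hinj ⟨d, hd⟩
    rw [show d = (x : F) * x from (congrArg Subtype.val hx).symm]
    exact hBA2 _ x.2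
  let Bm : Submodule F₀ F :=
    { carrier := {d | spX (eV l) (eV k) d ∈ M}
      add_mem' := fun {d d'} hd hd' => by
        rw [Set.mem_ofPred_eq, ← spX_add (hee l k)]; exact M.mul_mem hd hd'
      zero_mem' := hle (spX_rat (isRat_eV _) (isRat_eV _) (zero_mem _))
      smul_mem' := fun a d hd => hscale _ a.2 d hd }
  have hpow : ∀ n : ℕ, c ^ n ∈ Bm ∧ c ^ (n + 1) ∈ Bm := by
    intro n
    induction n with
    | zero => exact ⟨by rw [pow_zero]; exact hle (spX_rat (isRat_eV _) (isRat_eV _) (one_mem _)), by rw [zero_add, pow_one]; exact hmem⟩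
    | succ n ih =>
      refine ⟨ih.2, ?_⟩
      have hk := htrans _ _ (isRat_eV l) (eV_ne_zero l) (isRat_eV k) (eV_ne_zero k) _ (hBA _ ih.1)
      have := (hmul c (c ^ n) hmem hk).mp (by rw [← pow_succ']; exact ih.2)
      rw [show c * c * c ^ n = c ^ (n + 1 + 1) by ring] at this
      exact hAB _ this
  have hB : ∀ d : F, spX (eV l) (eV k) d ∈ M := by
    intro d
    have hdim : (Module.finrank F₀ F).Prime := by
      haveI := Fintype.ofFinite F₀
      have h1 : Fintype.card F = Fintype.card F₀ ^ Module.finrank F₀ F := Module.card_eq_pow_finrank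
      rw [hcard, Nat.card_eq_fintype_card] at h1
      rwa [← Nat.pow_right_injective (Fintype.one_lt_card (α := F₀)) h1]
    let K : IntermediateField F₀ F :=
      (Algebra.adjoin F₀ ({c} : Set F)).toIntermediateField' (Subalgebra.isField_of_algebraic _)
    haveI := IntermediateField.isSimpleOrder_of_finrank_prime F₀ F hdim
    have hcK : c ∈ K := Algebra.self_mem_adjoin_singleton F₀ c
    rcases eq_bot_or_eq_top K with hK | hK
    · exfalso
      rw [hK, IntermediateField.mem_bot] at hcK
      obtain ⟨a, ha⟩ := hcK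
      exact hc (ha ▸ a.2)
    have hd : d ∈ Algebra.adjoin F₀ ({c} : Set F) := show d ∈ K from hK ▸ IntermediateField.mem_top
    have hd' : d ∈ Subalgebra.toSubmodule (Algebra.adjoin F₀ ({c} : Set F)) := hd
    rw [Algebra.adjoin_eq_span] at hd'
    have hspan : Submodule.span F₀ (Submonoid.closure ({c} : Set F) : Set F) ≤ Bm := Submodule.span_le.mpr fun x hx => by
      obtain ⟨n, rfl⟩ := Submonoid.mem_closure_singleton.mp hx
      exact (hpow n).1
    exact hspan hd'
  let C : Set V := {v | ∀ d, spTrans v d ∈ M}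
  have hrat : ∀ v : V, IsRatVec F₀ v → v ≠ 0 → v ∈ C := fun v hv hv0 d =>
    htrans _ _ (isRat_eV l) (eV_ne_zero l) hv hv0 d (hBA d (hB d))
  refine spGL_le_of_spTrans M fun v d => (sp_closed_univ (C := C) (fun k v hv d => ?_) (fun u hu v hv huv d => ?_)
    (fun d => by rw [spTrans_zero_vec]; exact M.one_mem) (fun a => hrat _ (isRat_eV a) (eV_ne_zero a))
    (fun a => hrat _ (isRat_fV a) (fV_ne_zero a))
    (fun a b hab => hrat _ (isRat_add (isRat_eV a) (isRat_eV b))
      fun h => by simpa [eV, hab] using congrFun h (.inl a))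
    (fun a b hab => hrat _ (isRat_add (isRat_fV a) (isRat_fV b))
      fun h => by simpa [fV, hab] using congrFun h (.inr a)) v) d
  · rw [spTrans_smul]; exact hv _
  · have := hconjT _ (hv (β u v)⁻¹) u d (hu d)
    rwa [spTrans_mulVec, inv_mul_cancel₀ huv, one_smul] at this

end Cfsg.Agent.H25.SpFour
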